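import Mathlib
import Cfsg.Prelude.Def_SporadicB
import Cfsg.Agent.Forms.Symplectic
import Cfsg.Agent.Trans25.Basic

set_option autoImplicit false

/-! The symplectic transvections over the field with two elements form a class of 3-transpositions. -/

namespace Cfsg.Agent.SporB.SpTransv

open Matrix Cfsg.Agent.Forms

variable {n : ℕ}

local notation "V" => Fin n ⊕ Fin n → ZMod 2
local notation "B" => sympBil n (ZMod 2)

theorem two_cases (c : ZMod 2) : c = 0 ∨ c = 1 := by revert c; decide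

/-- the transvection at `v` as an element of the symplectic group -/
def tr (v : V) : Matrix.symplecticGroup (Fin n) (ZMod 2) :=
  ⟨Cfsg.sympTransvection n v 1, sympTransvection_mem v 1⟩

theorem tr_mulVec (v x : V) :
    ((tr v : Matrix.symplecticGroup (Fin n) (ZMod 2)) : Matrix (Fin n ⊕ Fin n) (Fin n ⊕ Fin n) (ZMod 2)) *ᵥ x
      = x + B x v • v := by
  show Cfsg.sympTransvection n v 1 *ᵥ x = _
  rw [sympTransvection_mulVec, one_mul, sympBil_apply]

theorem sp_ext {g h : Matrix.symplecticGroup (Fin n) (ZMod 2)}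
    (H : ∀ x : V, (g : Matrix (Fin n ⊕ Fin n) (Fin n ⊕ Fin n) (ZMod 2)) *ᵥ x
      = (h : Matrix (Fin n ⊕ Fin n) (Fin n ⊕ Fin n) (ZMod 2)) *ᵥ x) : g = h :=
  Subtype.ext (Matrix.ext_of_mulVec_single fun i => H _)

theorem B_self (v : V) : B v v = 0 := sympBil_isAlt.self_eq_zero v

theorem B_symm (u v : V) : B u v = B v u := by
  rw [← sympBil_isAlt.neg_eq v u, ZMod.neg_eq_self_mod_two]

theorem B_nondeg {u : V} (hu : u ≠ 0) : ∃ w, B u w = 1 := by
  by_contra h
  push Not at h
  exact hu (sympBil_nondegenerate.1 u fun w => (two_cases _).resolve_right (h w))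

theorem tr_mul_self (v : V) : tr v * tr v = 1 := by
  apply Subtype.ext
  show Cfsg.sympTransvection n v 1 * Cfsg.sympTransvection n v 1 = 1
  rw [sympTransvection_mul]
  simp [Cfsg.sympTransvection, show (1 : ZMod 2) + 1 = 0 from rfl]

theorem tr_conj (g : Matrix.symplecticGroup (Fin n) (ZMod 2)) (v : V) :
    g * tr v * g⁻¹ = tr ((g : Matrix (Fin n ⊕ Fin n) (Fin n ⊕ Fin n) (ZMod 2)) *ᵥ v) := by
  apply Subtype.ext
  show (g : Matrix (Fin n ⊕ Fin n) (Fin n ⊕ Fin n) (ZMod 2)) * Cfsg.sympTransvection n v 1 *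
    ((g⁻¹ : Matrix.symplecticGroup (Fin n) (ZMod 2)) : Matrix _ _ (ZMod 2)) = _
  rw [SymplecticGroup.coe_inv']
  exact sympTransvection_conj g.2 v 1

theorem tr_ne_one {v : V} (hv : v ≠ 0) : tr v ≠ 1 := by
  intro h
  obtain ⟨w, hw⟩ := B_nondeg hv
  have := tr_mulVec v w
  rw [h, B_symm, hw, one_smul] at this
  simp at this
  exact hv this

theorem rank_tr {v : V} (hv : v ≠ 0) :
    ((tr v : Matrix (Fin n ⊕ Fin n) (Fin n ⊕ Fin n) (ZMod 2)) - 1).rank = 1 := by
  have e : (tr v : Matrix (Fin n ⊕ Fin n) (Fin n ⊕ Fin n) (ZMod 2)) - 1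
      = vecMulVec v (Matrix.J (Fin n) (ZMod 2) *ᵥ v) := by
    show Cfsg.sympTransvection n v 1 - 1 = _
    simp [Cfsg.sympTransvection]
  refine le_antisymm (e ▸ rank_vecMulVec_le _ _) ?_
  rw [Nat.one_le_iff_ne_zero]
  intro h0
  rw [Matrix.rank, Submodule.finrank_eq_zero, LinearMap.range_eq_bot] at h0
  obtain ⟨w, hw⟩ := B_nondeg hv
  have := congrArg (fun f => f w) h0
  simp only [Matrix.mulVecLin_apply, Matrix.sub_mulVec, tr_mulVec, Matrix.one_mulVec,
    LinearMap.zero_apply] at this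
  rw [B_symm, hw] at this
  simp at this
  exact hv this

theorem exists_of_rank_one (g : Matrix.symplecticGroup (Fin n) (ZMod 2))
    (h : ((g : Matrix (Fin n ⊕ Fin n) (Fin n ⊕ Fin n) (ZMod 2)) - 1).rank = 1) :
    ∃ v : V, v ≠ 0 ∧ g = tr v := by
  obtain ⟨u, w, hu, hw, he⟩ := Cfsg.Agent.Trans25.exists_rank_one _ h
  have hg : ∀ x : V, (g : Matrix (Fin n ⊕ Fin n) (Fin n ⊕ Fin n) (ZMod 2)) *ᵥ x
      = x + (w ⬝ᵥ x) • u := by
    intro x
    rw [eq_add_of_sub_eq' he, Matrix.add_mulVec, Matrix.one_mulVec, Matrix.vecMulVec_mulVec]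
    simp
  have hrel : ∀ x y : V, (w ⬝ᵥ y) * B x u + (w ⬝ᵥ x) * B u y = 0 := by
    intro x y
    have h1 := mem_symplecticGroup_iff_sympForm.1 g.2 x y
    rw [← sympBil_apply, ← sympBil_apply, hg, hg] at h1
    simp only [map_add, map_smul, LinearMap.add_apply, LinearMap.smul_apply, smul_eq_mul,
      B_self, mul_zero, add_zero] at h1
    linear_combination h1
  obtain ⟨x₀, hx₀⟩ := B_nondeg hu
  rw [B_symm] at hx₀
  have hval : ∀ y, w ⬝ᵥ y = (w ⬝ᵥ x₀) * B y u := by
    intro y
    have h1 := hrel x₀ y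
    rw [hx₀, mul_one, B_symm u y] at h1
    exact CharTwo.add_eq_zero.1 h1
  have h1 : w ⬝ᵥ x₀ = 1 := by
    refine (two_cases _).resolve_left fun h0 => hw ?_
    funext i
    have := hval (Pi.single i 1)
    rwa [dotProduct_single_one, h0, zero_mul] at this
  refine ⟨u, hu, sp_ext fun x => ?_⟩
  rw [hg, tr_mulVec, hval, h1, one_mul]

theorem braid {u v : V} (h : B u v = 1) : tr u * tr v * tr u = tr v * tr u * tr v := by
  have inv : ∀ a : V, (tr a)⁻¹ = tr a := fun a => inv_eq_of_mul_eq_one_right (tr_mul_self a)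
  have e1 := tr_conj (tr u) v
  have e2 := tr_conj (tr v) u
  rw [inv, tr_mulVec] at e1 e2
  rw [e1, e2, B_symm v u, h, one_smul, one_smul, add_comm]

theorem product_cases (u v : V) : (tr u * tr v) ^ 2 = 1 ∨ (tr u * tr v) ^ 3 = 1 := by
  rcases two_cases (B u v) with h | h
  · left
    have e1 := tr_conj (tr u) v
    rw [tr_mulVec, B_symm, h, zero_smul, add_zero] at e1
    have hc : Commute (tr u) (tr v) := mul_inv_eq_iff_eq_mul.1 e1
    rw [hc.mul_pow, pow_two, pow_two, tr_mul_self, tr_mul_self, one_mul]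
  · right
    calc (tr u * tr v) ^ 3 = (tr u * tr v * tr u) * (tr v * tr u * tr v) := by
          simp [pow_succ, mul_assoc]
      _ = (tr v * tr u * tr v) * (tr v * tr u * tr v) := by rw [braid h]
      _ = tr v * tr u * (tr v * tr v) * tr u * tr v := by simp [mul_assoc]
      _ = tr v * (tr u * tr u) * tr v := by rw [tr_mul_self]; simp [mul_assoc]
      _ = 1 := by rw [tr_mul_self, mul_one, tr_mul_self]

theorem exists_common {u v : V} (hu : u ≠ 0) (hv : v ≠ 0) : ∃ w, B u w = 1 ∧ B v w = 1 := by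
  obtain ⟨w1, h1⟩ := B_nondeg hu
  obtain ⟨w2, h2⟩ := B_nondeg hv
  rcases two_cases (B v w1) with a | a
  · rcases two_cases (B u w2) with b | b
    · exact ⟨w1 + w2, by simp [map_add, h1, b], by simp [map_add, h2, a]⟩
    · exact ⟨w2, b, h2⟩
  · exact ⟨w1, h1, a⟩

theorem isConj_tr {u v : V} (hu : u ≠ 0) (hv : v ≠ 0) : IsConj (tr u) (tr v) := by
  have step : ∀ a b : V, B a b = 1 → IsConj (tr a) (tr b) := fun a b h => by
    refine isConj_iff.2 ⟨tr (a + b), ?_⟩
    rw [tr_conj, tr_mulVec, map_add, B_self, h, zero_add, one_smul, ← add_assoc,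
      ZModModule.add_self a, zero_add]
  obtain ⟨w, h1, h2⟩ := exists_common hu hv
  exact (step u w h1).trans (step w v (by rw [B_symm]; exact h2))

theorem isClass (hn : 1 ≤ n)
    (hgen : Subgroup.closure {A : Matrix.symplecticGroup (Fin n) (ZMod 2) |
      ∃ (w : V) (c : ZMod 2), (A : Matrix (Fin n ⊕ Fin n) (Fin n ⊕ Fin n) (ZMod 2))
        = Cfsg.sympTransvection n w c} = ⊤) :
    Cfsg.IsThreeTranspositionClass {g : Matrix.symplecticGroup (Fin n) (ZMod 2) |
      ((g : Matrix (Fin n ⊕ Fin n) (Fin n ⊕ Fin n) (ZMod 2)) - 1).rank = 1} := by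
  let e : V := Pi.single (Sum.inl ⟨0, hn⟩) 1
  have he : e ≠ 0 := by simp [e]
  refine ⟨⟨fun g hg => ?_, fun g hg h hh => ?_⟩, ⟨tr e, rank_tr he, ?_⟩, ?_⟩
  · obtain ⟨v, hv, rfl⟩ := exists_of_rank_one g hg
    exact orderOf_eq_prime (by rw [pow_two, tr_mul_self]) (tr_ne_one hv)
  · obtain ⟨u, -, rfl⟩ := exists_of_rank_one g hg
    obtain ⟨v, -, rfl⟩ := exists_of_rank_one h hh
    exact product_cases u v
  · ext g
    show _ ↔ IsConj (tr e) g
    constructor
    · intro hg
      obtain ⟨v, hv, rfl⟩ := exists_of_rank_one g hg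
      exact isConj_tr he hv
    · intro hg
      obtain ⟨k, rfl⟩ := isConj_iff.1 hg
      rw [tr_conj]
      refine rank_tr fun h0 => tr_ne_one he ?_
      have h1 := tr_conj k e
      rw [h0] at h1
      have : tr (0 : V) = 1 := sp_ext fun x => by rw [tr_mulVec]; simp
      rw [this, mul_inv_eq_one, mul_eq_left] at h1
      exact h1
  · rw [eq_top_iff, ← hgen, Subgroup.closure_le]
    rintro A ⟨w, c, hA⟩
    rcases two_cases c with rfl | rfl
    · have : A = 1 := Subtype.ext (by rw [hA]; simp [Cfsg.sympTransvection])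
      rw [this]; exact one_mem _
    · have : A = tr w := Subtype.ext hA
      subst this
      by_cases hw : w = 0
      · have : tr w = 1 := sp_ext fun x => by rw [tr_mulVec, hw]; simp
        rw [this]; exact one_mem _
      · exact Subgroup.subset_closure (rank_tr hw)

end Cfsg.Agent.SporB.SpTransv
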